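import Cfsg.Agent.Lib.Helper90.GK.T0
import Cfsg.Agent.Lib.Helper90.G2S.O6

set_option autoImplicit false

namespace Cfsg.Agent.Lib.Helper90.GK

open Cfsg.Lie Matrix Cfsg.Agent.Lib.Helper90.G2S
open scoped MatrixGroups

variable {F : Type*} [Field F]

theorem cra_e1 : (e1 : Fin 8 → F) = psi !![1, 0; 0, 0] 0 := by
  ext i
  fin_cases i <;> simp [e1, psi]

theorem cra_e1_mem : (e1 : Fin 8 → F) ∈ Idem F := by
  simp [Idem, e1]

theorem cra (h2 : (2 : F) ≠ 0) {Φ : MM F →* G2 F} (hΦ : IsPhi Φ) (g : G2 F)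
    (hg : g * Φ m0 = Φ m0 * g) :
    ∃ x : Matrix (Fin 2) (Fin 2) F, act g e1 = psi x 0 ∧ x * x = x ∧ x ≠ 0 ∧ x ≠ 1 := by
  have hfix : act (Φ m0) (e1 : Fin 8 → F) = e1 := by
    rw [cra_e1, t0_m0_act hΦ, neg_zero]
  have hf : act (Φ m0) (act g e1) = act g e1 := by
    rw [← act_mul, ← hg, act_mul, hfix]
  obtain ⟨x, y, hxy⟩ : ∃ x y : Matrix (Fin 2) (Fin 2) F, act g e1 = psi x y :=
    ⟨_, _, (psi_surj _).symm⟩
  rw [hxy, t0_m0_act hΦ] at hf
  have hy : y = 0 := by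
    have h := (psi_inj hf).2
    have h' : (2 : F) • y = 0 := by
      rw [two_smul]
      nth_rewrite 1 [← h]
      simp
    rcases smul_eq_zero.mp h' with h'' | h''
    · exact absurd h'' h2
    · exact h''
  subst hy
  have hI : act g (e1 : Fin 8 → F) ∈ Idem F := act_mem_Idem g cra_e1_mem
  rw [mem_Idem_iff, hxy] at hI
  obtain ⟨i1, i2, i3⟩ := hI
  refine ⟨x, hxy, ?_, ?_, ?_⟩
  · rw [zornMul_psi] at i1
    have := (psi_inj i1).1
    simpa using this
  · rintro rfl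
    apply i2
    ext i
    fin_cases i <;> simp [psi]
  · rintro rfl
    apply i3
    ext i
    fin_cases i <;> simp [psi, one8]

end Cfsg.Agent.Lib.Helper90.GK
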