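import Mathlib

set_option autoImplicit false

namespace Cfsg.Agent.Lib.Helper90.GK

open Matrix
open scoped MatrixGroups

variable {F : Type*} [Field F]

theorem crb (x : Matrix (Fin 2) (Fin 2) F) (h : x * x = x) (h0 : x ≠ 0) (h1 : x ≠ 1) :
    ∃ p : GL (Fin 2) F, (p : Matrix (Fin 2) (Fin 2) F) * !![1, 0; 0, 0] *
      ((p⁻¹ : GL (Fin 2) F) : Matrix (Fin 2) (Fin 2) F) = x := by
  -- a nonzero column v of x, a nonzero column v' of 1 - x
  obtain ⟨j, hj⟩ : ∃ j, (fun i => x i j) ≠ 0 := by
    by_contra hc
    push Not at hc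
    apply h0
    ext i j
    exact congrFun (hc j) i
  obtain ⟨k, hk⟩ : ∃ k, (fun i => (1 - x) i k) ≠ 0 := by
    by_contra hc
    push Not at hc
    apply h1
    have : (1 - x) = 0 := by
      ext i j
      exact congrFun (hc j) i
    exact (sub_eq_zero.mp this).symm
  set v : Fin 2 → F := fun i => x i j with hv
  set w : Fin 2 → F := fun i => (1 - x) i k with hw
  have hxv : x *ᵥ v = v := by
    ext i
    have := congrFun (congrFun h i) j
    simpa [Matrix.mul_apply, Matrix.mulVec, dotProduct, hv] using this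
  have hxw : x *ᵥ w = 0 := by
    have h2 : x * (1 - x) = 0 := by rw [mul_sub, mul_one, h, sub_self]
    ext i
    have := congrFun (congrFun h2 i) k
    simpa [Matrix.mul_apply, Matrix.mulVec, dotProduct, hw] using this
  set P : Matrix (Fin 2) (Fin 2) F := !![v 0, w 0; v 1, w 1] with hP
  have hxP : x * P = P * !![1, 0; 0, 0] := by
    have a0 := congrFun hxv 0
    have a1 := congrFun hxv 1
    have b0 := congrFun hxw 0
    have b1 := congrFun hxw 1
    simp only [Matrix.mulVec, dotProduct, Fin.sum_univ_two, Pi.zero_apply] at a0 a1 b0 b1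
    ext a b
    fin_cases a <;> fin_cases b <;> simp [hP, Matrix.mul_apply, Fin.sum_univ_two, a0, a1, b0, b1]
  have hdet : P.det ≠ 0 := by
    intro hd
    rw [hP, Matrix.det_fin_two_of] at hd
    -- v 0 * w 1 = w 0 * v 1 : then (w 1) v - (v 1) w = 0 and (w 0) v - (v 0) w = 0
    have e1 : (w 1) • v - (v 1) • w = 0 := by
      ext i
      fin_cases i
      · simp; linear_combination hd
      · simp; ring
    have e2 : (w 0) • v - (v 0) • w = 0 := by
      ext i
      fin_cases i
      · simp; ring
      · simp; linear_combination -hd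
    have f1 : (w 1) • v = 0 := by
      have := congrArg (fun u => x *ᵥ u) e1
      simpa [Matrix.mulVec_sub, Matrix.mulVec_smul, hxv, hxw] using this
    have f2 : (w 0) • v = 0 := by
      have := congrArg (fun u => x *ᵥ u) e2
      simpa [Matrix.mulVec_sub, Matrix.mulVec_smul, hxv, hxw] using this
    have g1 : w 1 = 0 := by
      rcases smul_eq_zero.mp f1 with h | h
      · exact h
      · exact absurd h hj
    have g0 : w 0 = 0 := by
      rcases smul_eq_zero.mp f2 with h | h
      · exact h
      · exact absurd h hj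
    apply hk
    ext i
    fin_cases i
    · exact g0
    · exact g1
  refine ⟨Matrix.GeneralLinearGroup.mkOfDetNeZero P hdet, ?_⟩
  have hc : ((Matrix.GeneralLinearGroup.mkOfDetNeZero P hdet : GL (Fin 2) F) : Matrix (Fin 2) (Fin 2) F) = P := rfl
  rw [hc, ← hxP, mul_assoc]
  have : P * (((Matrix.GeneralLinearGroup.mkOfDetNeZero P hdet)⁻¹ : GL (Fin 2) F) : Matrix (Fin 2) (Fin 2) F) = 1 := by
    have := (Matrix.GeneralLinearGroup.mkOfDetNeZero P hdet).mul_inv
    simpa [hc] using this
  rw [this, mul_one]

end Cfsg.Agent.Lib.Helper90.GK
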