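import Cfsg.Agent.Lib.Helper90.GK.Defs
import Cfsg.Agent.Lib.Helper90.G2S.Asm

set_option autoImplicit false

namespace Cfsg.Agent.Lib.Helper90.GK

open Cfsg.Lie Matrix Cfsg.Agent.Lib.Helper90.G2S
open scoped MatrixGroups

variable {F : Type*} [Field F]

/-- [CRC] -/
theorem crc (h2 : (2 : F) ≠ 0) {Φ : MM F →* G2 F} (hΦ : IsPhi Φ)
    (ι : SpecialLinearGroup (Fin 3) F →* G2 F) (hι : ∀ s, ActsAs (ι s) s)
    (s : SpecialLinearGroup (Fin 3) F)
    (hs : (s : Matrix (Fin 3) (Fin 3) F) * Matrix.diagonal ![1, -1, -1] =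
      Matrix.diagonal ![1, -1, -1] * (s : Matrix (Fin 3) (Fin 3) F)) : ι s ∈ Φ.range := by
  obtain ⟨S, hS⟩ : ∃ S : Matrix (Fin 3) (Fin 3) F, S = s := ⟨_, rfl⟩
  rw [← hS] at hs
  have hz : ∀ x : F, -x = x → x = 0 := by
    intro x hx
    have h3 : (2 : F) * x = 0 := by linear_combination -hx
    exact (mul_eq_zero.1 h3).resolve_left h2
  have h01 : S 0 1 = 0 := by
    have h3 := congrFun (congrFun hs 0) 1
    rw [Matrix.mul_diagonal, Matrix.diagonal_mul] at h3
    apply hz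
    simpa using h3
  have h02 : S 0 2 = 0 := by
    have h3 := congrFun (congrFun hs 0) 2
    rw [Matrix.mul_diagonal, Matrix.diagonal_mul] at h3
    apply hz
    simpa using h3
  have h10 : S 1 0 = 0 := by
    have h3 := congrFun (congrFun hs 1) 0
    rw [Matrix.mul_diagonal, Matrix.diagonal_mul] at h3
    apply hz
    simpa using h3.symm
  have h20 : S 2 0 = 0 := by
    have h3 := congrFun (congrFun hs 2) 0
    rw [Matrix.mul_diagonal, Matrix.diagonal_mul] at h3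
    apply hz
    simpa using h3.symm
  have hdet : S 0 0 * (S 1 1 * S 2 2 - S 1 2 * S 2 1) = 1 := by
    have h3 : S.det = 1 := by rw [hS]; exact s.2
    rw [Matrix.det_fin_three, h01, h02, h10, h20] at h3
    linear_combination h3
  obtain ⟨δ, hδ⟩ : ∃ δ : F, δ = S 1 1 * S 2 2 - S 1 2 * S 2 1 := ⟨_, rfl⟩
  rw [← hδ] at hdet
  have hδ0 : δ ≠ 0 := by
    intro h0
    rw [h0, mul_zero] at hdet
    exact zero_ne_one hdet
  let p : GL (Fin 2) F := ⟨!![1, 0; 0, δ], !![1, 0; 0, S 0 0],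
    by
      ext i j
      fin_cases i <;> fin_cases j <;> simp [Matrix.mul_apply, Fin.sum_univ_two]
      linear_combination hdet,
    by
      ext i j
      fin_cases i <;> fin_cases j <;> simp [Matrix.mul_apply, Fin.sum_univ_two]
      linear_combination hdet⟩
  have hrdet : (!![S 1 1, -S 1 2; -S 2 1, S 2 2] : Matrix (Fin 2) (Fin 2) F).det ≠ 0 := by
    rw [Matrix.det_fin_two_of]
    intro h0
    apply hδ0
    rw [hδ]
    linear_combination h0
  let r : GL (Fin 2) F := GeneralLinearGroup.mkOfDetNeZero _ hrdet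
  have hp : (p : Matrix (Fin 2) (Fin 2) F) = !![1, 0; 0, δ] := rfl
  have hpi : ((p⁻¹ : GL (Fin 2) F) : Matrix (Fin 2) (Fin 2) F) = !![1, 0; 0, S 0 0] := rfl
  have hr : (r : Matrix (Fin 2) (Fin 2) F) = !![S 1 1, -S 1 2; -S 2 1, S 2 2] := rfl
  have hmem : (p, r) ∈ MM F := by
    change GeneralLinearGroup.det p = GeneralLinearGroup.det r
    ext
    rw [GeneralLinearGroup.val_det_apply, GeneralLinearGroup.val_det_apply, hp, hr,
      Matrix.det_fin_two_of, Matrix.det_fin_two_of, hδ]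
    ring
  refine ⟨⟨(p, r), hmem⟩, ?_⟩
  have hinv : ((s⁻¹ : SpecialLinearGroup (Fin 3) F) : Matrix (Fin 3) (Fin 3) F) = adjugate S := by
    rw [hS]
    exact Matrix.SpecialLinearGroup.coe_inv s
  apply act_ext
  intro w
  have hL := hΦ ⟨(p, r), hmem⟩ !![w 0, w 1; w 4, w 7] !![w 2, w 6; - w 3, w 5]
  have hR := hι s (w 0) (w 7) ![w 1, w 2, w 3] ![w 4, w 5, w 6]
  have hw : zv (w 0) ![w 1, w 2, w 3] ![w 4, w 5, w 6] (w 7) = w := by
    ext i
    fin_cases i <;> rfl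
  rw [psi_surj] at hL
  rw [hw, hinv, ← hS] at hR
  rw [hL, hR]
  show psi ((p : Matrix (Fin 2) (Fin 2) F) * _ * ((p⁻¹ : GL (Fin 2) F) : Matrix (Fin 2) (Fin 2) F))
    ((r : Matrix (Fin 2) (Fin 2) F) * _ * ((p⁻¹ : GL (Fin 2) F) : Matrix (Fin 2) (Fin 2) F)) = _
  rw [hp, hpi, hr, Matrix.adjugate_fin_three]
  ext i
  fin_cases i <;>
    simp [psi, zv, Matrix.mulVec, dotProduct, Fin.sum_univ_three, Matrix.mul_apply,
      Fin.sum_univ_two, h01, h02, h10, h20]
  · ring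
  · ring
  · exact Or.inl hδ
  · ring
  · ring
  · linear_combination (w 7) * hdet

end Cfsg.Agent.Lib.Helper90.GK
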