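import Cfsg.Agent.Lib.Helper90.GK.Defs
import Cfsg.Agent.Lib.Helper90.G2S.O1
import Cfsg.Agent.Lib.Helper90.G2S.O2

set_option autoImplicit false

namespace Cfsg.Agent.Lib.Helper90.GK

open Cfsg.Lie Matrix Cfsg.Agent.Lib.Helper90.G2S
open scoped MatrixGroups

variable {F : Type*} [Field F]

theorem t0_m0_act {Φ : MM F →* G2 F} (hΦ : IsPhi Φ) (x y : Matrix (Fin 2) (Fin 2) F) :
    act (Φ m0) (psi x y) = psi x (-y) := by
  rw [hΦ m0 x y]
  have a1 : (((m0 : MM F).1.1 : GL (Fin 2) F) : Matrix (Fin 2) (Fin 2) F) = 1 := rfl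
  have a2 : (((m0 : MM F).1.2 : GL (Fin 2) F) : Matrix (Fin 2) (Fin 2) F) = -1 := rfl
  have a3 : ((((m0 : MM F).1.1)⁻¹ : GL (Fin 2) F) : Matrix (Fin 2) (Fin 2) F) = 1 := by
    have : ((m0 : MM F).1.1 : GL (Fin 2) F) = 1 := rfl
    rw [this, inv_one]
    rfl
  rw [a1, a2, a3]
  simp

theorem t0_eq {Φ : MM F →* G2 F} (hΦ : IsPhi Φ)
    (ι : SpecialLinearGroup (Fin 3) F →* G2 F) (hι : ∀ s, ActsAs (ι s) s)
    (s : SpecialLinearGroup (Fin 3) F)
    (hs : (s : Matrix (Fin 3) (Fin 3) F) = Matrix.diagonal ![1, -1, -1]) : ι s = Φ m0 := by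
  have hinv : s⁻¹ = s := by
    apply inv_eq_of_mul_eq_one_right
    apply Matrix.SpecialLinearGroup.ext
    intro i j
    rw [Matrix.SpecialLinearGroup.coe_mul, hs, Matrix.diagonal_mul_diagonal]
    fin_cases i <;> fin_cases j <;> simp
  apply act_ext
  intro w
  rw [← psi_surj w, t0_m0_act hΦ, psi_eq_zv, hι s, hinv, hs, Matrix.diagonal_transpose]
  ext i
  fin_cases i <;> simp [zv, psi, Matrix.mulVec_diagonal]

end Cfsg.Agent.Lib.Helper90.GK
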