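import Cfsg.Agent.Lib.Helper90.GK.Defs
import Cfsg.Agent.Lib.Helper90.G2S.Asm
import Cfsg.Agent.Lib.Helper90.GK.T0
import Cfsg.Agent.Lib.Helper90.GK.CRA
import Cfsg.Agent.Lib.Helper90.GK.CRB
import Cfsg.Agent.Lib.Helper90.GK.CRC

set_option autoImplicit false

namespace Cfsg.Agent.Lib.Helper90.GK

open Cfsg.Lie Matrix Cfsg.Agent.Lib.Helper90.G2S
open scoped MatrixGroups

variable {F : Type*} [Field F]

theorem cr_m0_central (m : MM F) : m * m0 = m0 * m := by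
  apply Subtype.ext
  apply Prod.ext
  · show m.1.1 * 1 = 1 * m.1.1
    rw [mul_one, one_mul]
  · show m.1.2 * (-1) = (-1) * m.1.2
    rw [mul_neg, neg_mul, mul_one, one_mul]

/-- [CR] -/
theorem cent_eq_range (h2 : (2 : F) ≠ 0) {Φ : MM F →* G2 F} (hΦ : IsPhi Φ) :
    Subgroup.centralizer ({Φ m0} : Set (G2 F)) = Φ.range := by
  apply le_antisymm
  · intro g hg
    rw [Subgroup.mem_centralizer_singleton_iff] at hg
    obtain ⟨x, hx, hxx, hx0, hx1⟩ := cra h2 hΦ g hg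
    obtain ⟨p, hp⟩ := crb x hxx hx0 hx1
    have hmem : (p, p) ∈ MM F := by
      change GeneralLinearGroup.det p = GeneralLinearGroup.det p
      rfl
    obtain ⟨m1, hm1⟩ : ∃ m1 : MM F, m1 = ⟨(p, p), hmem⟩ := ⟨_, rfl⟩
    have he1 : (e1 : Fin 8 → F) = psi !![1, 0; 0, 0] 0 := by
      ext i
      fin_cases i <;> simp [e1, psi]
    have h1 : act (Φ m1) e1 = act g e1 := by
      rw [hx, he1, hΦ, hm1]
      show psi ((p : Matrix (Fin 2) (Fin 2) F) * _ *
        ((p⁻¹ : GL (Fin 2) F) : Matrix (Fin 2) (Fin 2) F))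
        ((p : Matrix (Fin 2) (Fin 2) F) * 0 *
        ((p⁻¹ : GL (Fin 2) F) : Matrix (Fin 2) (Fin 2) F)) = _
      rw [hp, mul_zero, zero_mul]
    have h3 : act ((Φ m1)⁻¹ * g) e1 = e1 := by
      rw [act_mul, ← h1, ← act_mul, inv_mul_cancel, act_one]
    obtain ⟨s, hs⟩ := stab_e1 _ h3
    obtain ⟨ι, hι⟩ := exists_iota (F := F)
    have h4 : (Φ m1)⁻¹ * g = ι s := o8_actsAs_unique hs (hι s)
    obtain ⟨d0, hd0⟩ : ∃ d0 : SpecialLinearGroup (Fin 3) F,
        (d0 : Matrix (Fin 3) (Fin 3) F) = Matrix.diagonal ![1, -1, -1] :=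
      ⟨⟨Matrix.diagonal ![1, -1, -1], by simp [Matrix.det_diagonal, Fin.prod_univ_three]⟩, rfl⟩
    have h5 : ι d0 = Φ m0 := t0_eq hΦ ι hι d0 hd0
    have h6 : ι s * ι d0 = ι d0 * ι s := by
      rw [← h4, h5, mul_assoc, hg, ← mul_assoc, ← mul_assoc]
      congr 1
      rw [← map_inv, ← map_mul, ← map_mul, cr_m0_central]
    have h7 : s * d0 = d0 * s := by
      apply o8_actsAs_inj (hι (s * d0))
      rw [map_mul, h6, ← map_mul]
      exact hι _
    have h8 : ι s ∈ Φ.range := by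
      apply crc h2 hΦ ι hι s
      have h9 : ((s * d0 : SpecialLinearGroup (Fin 3) F) : Matrix (Fin 3) (Fin 3) F) =
          ((d0 * s : SpecialLinearGroup (Fin 3) F) : Matrix (Fin 3) (Fin 3) F) := by rw [h7]
      have h10 : ((s * d0 : SpecialLinearGroup (Fin 3) F) : Matrix (Fin 3) (Fin 3) F) =
          (s : Matrix (Fin 3) (Fin 3) F) * (d0 : Matrix (Fin 3) (Fin 3) F) :=
        Matrix.SpecialLinearGroup.coe_mul s d0
      have h11 : ((d0 * s : SpecialLinearGroup (Fin 3) F) : Matrix (Fin 3) (Fin 3) F) =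
          (d0 : Matrix (Fin 3) (Fin 3) F) * (s : Matrix (Fin 3) (Fin 3) F) :=
        Matrix.SpecialLinearGroup.coe_mul d0 s
      rw [h10, h11, hd0] at h9
      exact h9
    have h9 : g = Φ m1 * ι s := by rw [← h4, mul_inv_cancel_left]
    rw [h9]
    exact Φ.range.mul_mem ⟨m1, rfl⟩ h8
  · rintro _ ⟨m, rfl⟩
    rw [Subgroup.mem_centralizer_singleton_iff, ← map_mul, ← map_mul, cr_m0_central]

end Cfsg.Agent.Lib.Helper90.GK
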