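import Cfsg.Agent.Lib.Helper90.GK.Defs
import Cfsg.Agent.Lib.Helper90.G2S.Asm

set_option autoImplicit false

namespace Cfsg.Agent.Lib.Helper90.GK

open Cfsg.Lie Matrix Cfsg.Agent.Lib.Helper90.G2S
open scoped MatrixGroups

variable {F : Type*} [Field F]

/-- the quotient of determinants. -/
noncomputable def kcDelta (F : Type*) [Field F] : GL (Fin 2) F × GL (Fin 2) F →* Fˣ :=
  ((GeneralLinearGroup.det (n := Fin 2) (R := F)).comp (MonoidHom.fst _ _)) /
    ((GeneralLinearGroup.det (n := Fin 2) (R := F)).comp (MonoidHom.snd _ _))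

theorem kc_ker : (kcDelta F).ker = MM F := by
  ext m
  rw [MonoidHom.mem_ker]
  change GeneralLinearGroup.det m.1 / GeneralLinearGroup.det m.2 = 1 ↔
    GeneralLinearGroup.det m.1 = GeneralLinearGroup.det m.2
  exact div_eq_one

theorem kc_surj : Function.Surjective (kcDelta F) := by
  intro u
  refine ⟨(GeneralLinearGroup.mkOfDetNeZero (Matrix.diagonal ![(u : F), 1]) (by
    simp [Matrix.det_diagonal, Fin.prod_univ_two]), 1), ?_⟩
  change GeneralLinearGroup.det _ / GeneralLinearGroup.det (1 : GL (Fin 2) F) = u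
  rw [map_one, div_one]
  apply Units.ext
  simp [GeneralLinearGroup.mkOfDetNeZero, Matrix.det_diagonal, Fin.prod_univ_two]

theorem kc_card_MM [Fintype F] :
    Nat.card (GL (Fin 2) F) * Nat.card (GL (Fin 2) F) = Nat.card (MM F) * (Fintype.card F - 1) := by
  have h := c2_ker_range (kcDelta F)
  rw [Nat.card_prod, kc_ker, MonoidHom.range_eq_top.mpr kc_surj,
    Nat.card_congr (Subgroup.topEquiv (G := Fˣ)).toEquiv, c2_card_units] at h
  exact h

/-- the scalar pairs as elements of `MM`. -/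
noncomputable def kcS (c : Fˣ) : MM F := ⟨c2s F c, rfl⟩

theorem kc_card_ker [Fintype F] {Φ : MM F →* G2 F} (hΦ : IsPhi Φ) :
    Nat.card Φ.ker = Fintype.card F - 1 := by
  rw [← c2_card_units]
  symm
  apply Nat.card_congr
  refine Equiv.ofBijective (fun c : Fˣ => (⟨kcS c, ?_⟩ : Φ.ker)) ⟨?_, ?_⟩
  · rw [MonoidHom.mem_ker, ← map_one Φ]
    apply Phi_scalar hΦ _ _ (c : F)
    · ext i j
      simp [kcS, c2s, Matrix.one_apply, Matrix.scalar_apply, Matrix.diagonal_apply]
    · ext i j
      simp [kcS, c2s, Matrix.one_apply, Matrix.scalar_apply, Matrix.diagonal_apply]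
  · intro a b hab
    apply c2s_inj
    exact congrArg (fun z : Φ.ker => (z.1.1 : GL (Fin 2) F × GL (Fin 2) F)) hab
  · rintro ⟨m, hm⟩
    obtain ⟨c, h1, h2⟩ := ker_Phi hΦ m hm
    have hc : c ≠ 0 := by
      rintro rfl
      have hdet := (m.1.1).det_ne_zero
      rw [h1] at hdet
      simp at hdet
    refine ⟨Units.mk0 c hc, ?_⟩
    apply Subtype.ext
    apply Subtype.ext
    apply Prod.ext
    · apply Units.ext
      rw [h1]
      ext i j
      simp [kcS, c2s, Matrix.one_apply, Matrix.scalar_apply, Matrix.diagonal_apply]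
    · apply Units.ext
      rw [h2]
      ext i j
      simp [kcS, c2s, Matrix.one_apply, Matrix.scalar_apply, Matrix.diagonal_apply]

theorem card_range [Fintype F] {Φ : MM F →* G2 F} (hΦ : IsPhi Φ) :
    Nat.card Φ.range = Fintype.card F ^ 2 * (Fintype.card F ^ 2 - 1) ^ 2 := by
  classical
  have hGL : Nat.card (GL (Fin 2) F) =
      (Fintype.card F ^ 2 - 1) * (Fintype.card F ^ 2 - Fintype.card F) := by
    rw [Matrix.card_GL_field]
    simp [Fin.prod_univ_two]
  have h1 := kc_card_MM (F := F)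
  have h2 := c2_ker_range Φ
  rw [kc_card_ker hΦ] at h2
  rw [h2, hGL] at h1
  have hq : 2 ≤ Fintype.card F := Fintype.one_lt_card
  obtain ⟨k, hk⟩ : ∃ k, Fintype.card F = k + 2 := ⟨Fintype.card F - 2, by omega⟩
  rw [hk] at h1 ⊢
  have e1 : (k + 2) ^ 2 - 1 = (k + 1) * (k + 3) := by
    have : (k + 2) ^ 2 = (k + 1) * (k + 3) + 1 := by ring
    omega
  have e2 : (k + 2) ^ 2 - (k + 2) = (k + 1) * (k + 2) := by
    have : (k + 2) ^ 2 = (k + 1) * (k + 2) + (k + 2) := by ring
    omega
  have e3 : k + 2 - 1 = k + 1 := by omega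
  rw [e1, e2, e3] at h1
  rw [e1]
  have h3 : (k + 1) * (k + 1) * ((k + 2) ^ 2 * ((k + 1) * (k + 3)) ^ 2) =
      (k + 1) * (k + 1) * Nat.card Φ.range := by
    calc _ = (k + 1) * (k + 3) * ((k + 1) * (k + 2)) * ((k + 1) * (k + 3) * ((k + 1) * (k + 2))) := by
          ring
      _ = (k + 1) * Nat.card Φ.range * (k + 1) := h1
      _ = _ := by ring
  exact (Nat.eq_of_mul_eq_mul_left (by positivity) h3).symm

end Cfsg.Agent.Lib.Helper90.GK
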