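import Cfsg.Agent.Lib.Helper90.GK.Defs
import Cfsg.Agent.Lib.Helper90.G2S.O3K
import Cfsg.Agent.Lib.Helper90.G2S.O3S

set_option autoImplicit false

namespace Cfsg.Agent.Lib.Helper90.GK

open Cfsg.Lie Matrix Cfsg.Agent.Lib.Helper90.G2S
open scoped MatrixGroups

variable {F : Type*} [Field F]

theorem la_j1_fst (s : SpecialLinearGroup (Fin 2) F) :
    (((j1 s : MM F).1.1 : GL (Fin 2) F) : Matrix (Fin 2) (Fin 2) F) = (s : Matrix (Fin 2) (Fin 2) F) := rfl

theorem la_j1_snd (s : SpecialLinearGroup (Fin 2) F) :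
    (((j1 s : MM F).1.2 : GL (Fin 2) F) : Matrix (Fin 2) (Fin 2) F) = 1 := rfl

theorem la_j2_fst (s : SpecialLinearGroup (Fin 2) F) :
    (((j2 s : MM F).1.1 : GL (Fin 2) F) : Matrix (Fin 2) (Fin 2) F) = 1 := rfl

theorem la_j2_snd (s : SpecialLinearGroup (Fin 2) F) :
    (((j2 s : MM F).1.2 : GL (Fin 2) F) : Matrix (Fin 2) (Fin 2) F) = (s : Matrix (Fin 2) (Fin 2) F) := rfl

theorem la_one_of_smul {c : F} (h : (1 : Matrix (Fin 2) (Fin 2) F) = c • 1) : c = 1 := by
  have := congrFun (congrFun h 0) 0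
  simpa using this.symm

theorem la {Φ : MM F →* G2 F} (hΦ : IsPhi Φ) :
    Function.Injective (Φ.comp j1) ∧ Function.Injective (Φ.comp j2) := by
  constructor
  · rw [injective_iff_map_eq_one]
    intro s hs
    obtain ⟨c, h1, h2⟩ := ker_Phi hΦ (j1 s) hs
    rw [la_j1_fst] at h1
    rw [la_j1_snd] at h2
    have hc := la_one_of_smul h2
    apply Subtype.ext
    rw [h1, hc, one_smul]
    rfl
  · rw [injective_iff_map_eq_one]
    intro s hs
    obtain ⟨c, h1, h2⟩ := ker_Phi hΦ (j2 s) hs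
    rw [la_j2_fst] at h1
    rw [la_j2_snd] at h2
    have hc := la_one_of_smul h1
    apply Subtype.ext
    rw [h2, hc, one_smul]
    rfl

end Cfsg.Agent.Lib.Helper90.GK
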