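import Cfsg.Agent.Lib.Helper90.GK.LA

set_option autoImplicit false

namespace Cfsg.Agent.Lib.Helper90.GK

open Cfsg.Lie Matrix Cfsg.Agent.Lib.Helper90.G2S
open scoped MatrixGroups

variable {F : Type*} [Field F]

theorem lb_comm (s s' : SpecialLinearGroup (Fin 2) F) : (j1 s : MM F) * j2 s' = j2 s' * j1 s := by
  apply Subtype.ext
  apply Prod.ext
  · apply Units.ext
    change (s : Matrix (Fin 2) (Fin 2) F) * 1 = 1 * (s : Matrix (Fin 2) (Fin 2) F)
    rw [mul_one, one_mul]
  · apply Units.ext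
    change (1 : Matrix (Fin 2) (Fin 2) F) * (s' : Matrix (Fin 2) (Fin 2) F) = (s' : Matrix (Fin 2) (Fin 2) F) * 1
    rw [mul_one, one_mul]

theorem lb_m0_fst : (((m0 : MM F).1.1 : GL (Fin 2) F) : Matrix (Fin 2) (Fin 2) F) = 1 := rfl

theorem lb_m0_snd : (((m0 : MM F).1.2 : GL (Fin 2) F) : Matrix (Fin 2) (Fin 2) F) = -1 := rfl

theorem lb_m0_j2 : (m0 : MM F) = j2 (-1) := by
  apply Subtype.ext
  apply Prod.ext
  · rfl
  · apply Units.ext
    change (-1 : Matrix (Fin 2) (Fin 2) F) = ((-1 : SpecialLinearGroup (Fin 2) F) : Matrix (Fin 2) (Fin 2) F)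
    simp

theorem lb_m0_j1 {Φ : MM F →* G2 F} (hΦ : IsPhi Φ) : Φ m0 = Φ (j1 (-1)) := by
  apply Phi_scalar hΦ _ _ (-1)
  · rw [lb_m0_fst, la_j1_fst]
    simp
  · rw [lb_m0_snd, la_j1_snd]
    simp

theorem lb_m0_sq {Φ : MM F →* G2 F} : Φ m0 * Φ m0 = 1 := by
  rw [← map_mul]
  have : (m0 : MM F) * m0 = 1 := by
    rw [lb_m0_j2, ← map_mul]
    have : (-1 : SpecialLinearGroup (Fin 2) F) * (-1) = 1 := by simp
    rw [this, map_one]
  rw [this, map_one]

theorem lb {Φ : MM F →* G2 F} (hΦ : IsPhi Φ) :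
    (∀ x ∈ (Φ.comp j1).range, ∀ y ∈ (Φ.comp j2).range, x * y = y * x) ∧
    (Φ.comp j1).range ⊓ (Φ.comp j2).range = Subgroup.zpowers (Φ m0) := by
  constructor
  · rintro _ ⟨s, rfl⟩ _ ⟨s', rfl⟩
    simp only [MonoidHom.comp_apply]
    rw [← map_mul, ← map_mul, lb_comm]
  · apply le_antisymm
    · rintro x ⟨⟨s, hs⟩, ⟨s', hs'⟩⟩
      simp only [MonoidHom.comp_apply] at hs hs'
      have hk : Φ (j1 s * j2 s'⁻¹) = 1 := by
        rw [map_mul, map_inv, map_inv, hs, hs', mul_inv_cancel]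
      obtain ⟨c, h1, h2⟩ := ker_Phi hΦ _ hk
      have h1' : (s : Matrix (Fin 2) (Fin 2) F) = c • 1 := by
        rw [← h1]
        change (s : Matrix (Fin 2) (Fin 2) F) = (s : Matrix (Fin 2) (Fin 2) F) * 1
        rw [mul_one]
      have hdet : c * c = 1 := by
        have := s.2
        rw [h1'] at this
        simpa [Matrix.det_smul, pow_two] using this
      have hc : c = 1 ∨ c = -1 := mul_self_eq_one_iff.mp hdet
      rcases hc with rfl | rfl
      · have : s = 1 := by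
          apply Subtype.ext
          rw [h1', one_smul]
          rfl
        rw [← hs, this, map_one, map_one]
        exact one_mem _
      · have : s = -1 := by
          apply Subtype.ext
          rw [h1']
          simp
        rw [← hs, this, ← lb_m0_j1 hΦ]
        exact Subgroup.mem_zpowers _
    · rw [Subgroup.zpowers_le]
      refine ⟨⟨-1, ?_⟩, ⟨-1, ?_⟩⟩
      · simp only [MonoidHom.comp_apply]
        exact (lb_m0_j1 hΦ).symm
      · simp only [MonoidHom.comp_apply]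
        rw [lb_m0_j2]

end Cfsg.Agent.Lib.Helper90.GK
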