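import Cfsg.Agent.Lib.Helper90.GK.KC
import Cfsg.Agent.Lib.Helper7.SL2

set_option autoImplicit false

namespace Cfsg.Agent.Lib.Helper90.GK

open Cfsg.Lie Matrix Cfsg.Agent.Lib.Helper90.G2S
open scoped MatrixGroups

variable {F : Type*} [Field F]

theorem lc_comm (s s' : SpecialLinearGroup (Fin 2) F) : j1 s * j2 s' = j2 s' * j1 s := by
  apply Subtype.ext
  apply Prod.ext
  · change SpecialLinearGroup.toGL s * 1 = 1 * SpecialLinearGroup.toGL s
    rw [mul_one, one_mul]
  · change 1 * SpecialLinearGroup.toGL s' = SpecialLinearGroup.toGL s' * 1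
    rw [mul_one, one_mul]

theorem lc_fst (s s' : SpecialLinearGroup (Fin 2) F) :
    (((j1 s * j2 s' : MM F).1.1 : GL (Fin 2) F) : Matrix (Fin 2) (Fin 2) F) = s.1 := by
  change ((SpecialLinearGroup.toGL s * 1 : GL (Fin 2) F) : Matrix (Fin 2) (Fin 2) F) = s.1
  rw [mul_one]
  rfl

theorem lc_snd (s s' : SpecialLinearGroup (Fin 2) F) :
    (((j1 s * j2 s' : MM F).1.2 : GL (Fin 2) F) : Matrix (Fin 2) (Fin 2) F) = s'.1 := by
  change ((1 * SpecialLinearGroup.toGL s' : GL (Fin 2) F) : Matrix (Fin 2) (Fin 2) F) = s'.1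
  rw [one_mul]
  rfl

/-- the homomorphism `SL₂ × SL₂ → G₂`. -/
noncomputable def lcPsi (Φ : MM F →* G2 F) :
    SpecialLinearGroup (Fin 2) F × SpecialLinearGroup (Fin 2) F →* G2 F :=
  MonoidHom.noncommCoprod (Φ.comp j1) (Φ.comp j2) (fun s s' => by
    change Φ (j1 s) * Φ (j2 s') = Φ (j2 s') * Φ (j1 s)
    rw [← map_mul, ← map_mul, lc_comm])

theorem lcPsi_apply (Φ : MM F →* G2 F)
    (p : SpecialLinearGroup (Fin 2) F × SpecialLinearGroup (Fin 2) F) :
    lcPsi Φ p = Φ (j1 p.1 * j2 p.2) := by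
  rw [map_mul]
  rfl

theorem lc_card_ker (h2 : (2 : F) ≠ 0) {Φ : MM F →* G2 F} (hΦ : IsPhi Φ) :
    Nat.card (lcPsi Φ).ker = 2 := by
  have hneg : ((-1 : SpecialLinearGroup (Fin 2) F), (-1 : SpecialLinearGroup (Fin 2) F)) ∈
      (lcPsi Φ).ker := by
    rw [MonoidHom.mem_ker, lcPsi_apply, ← map_one Φ]
    apply Phi_scalar hΦ _ _ (-1 : F)
    · rw [lc_fst]
      ext i j
      simp
    · rw [lc_snd]
      ext i j
      simp
  rw [Nat.card_eq_two_iff]
  refine ⟨1, ⟨_, hneg⟩, ?_, ?_⟩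
  · intro h
    have h1 := congrArg (fun z : (lcPsi Φ).ker => (z.1.1 : SpecialLinearGroup (Fin 2) F).1 0 0) h
    have h1' : (1 : F) = -1 := by simpa using h1
    apply h2
    linear_combination h1'
  · rw [Set.eq_univ_iff_forall]
    rintro ⟨⟨s, s'⟩, hs⟩
    rw [MonoidHom.mem_ker, lcPsi_apply] at hs
    obtain ⟨c, h1, h2'⟩ := ker_Phi hΦ _ hs
    rw [lc_fst] at h1
    rw [lc_snd] at h2'
    have hc : c = 1 ∨ c = -1 := by
      have := s.2
      rw [h1] at this
      simpa [Matrix.det_fin_two] using this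
    rcases hc with rfl | rfl
    · left
      apply Subtype.ext
      apply Prod.ext
      · apply Subtype.ext
        rw [h1]; simp
      · apply Subtype.ext
        rw [h2']; simp
    · right
      apply Subtype.ext
      apply Prod.ext
      · apply Subtype.ext
        rw [h1]; simp
      · apply Subtype.ext
        rw [h2']; simp

theorem lc [Fintype F] (hF : Odd (Fintype.card F)) {Φ : MM F →* G2 F} (hΦ : IsPhi Φ) :
    (Φ.comp j1).range ⊔ (Φ.comp j2).range ≤ Φ.range ∧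
    ((Φ.comp j1).range ⊔ (Φ.comp j2).range).relIndex Φ.range = 2 := by
  classical
  have h2 : (2 : F) ≠ 0 := by
    intro h
    have hch : ringChar F = 2 := by
      have hd : ringChar F ∣ 2 := (ringChar.spec F 2).mp (by exact_mod_cast h)
      rcases (Nat.dvd_prime Nat.prime_two).mp hd with h1 | h1
      · exact absurd h1 (CharP.ringChar_ne_one)
      · exact h1
    have := FiniteField.even_card_of_char_two hch
    exact (Nat.not_even_iff_odd.mpr hF) (Nat.even_iff.mpr this)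
  have hle : (Φ.comp j1).range ⊔ (Φ.comp j2).range ≤ Φ.range := by
    apply sup_le
    · rintro _ ⟨s, rfl⟩
      exact ⟨j1 s, rfl⟩
    · rintro _ ⟨s, rfl⟩
      exact ⟨j2 s, rfl⟩
  refine ⟨hle, ?_⟩
  have hr : (lcPsi Φ).range = (Φ.comp j1).range ⊔ (Φ.comp j2).range :=
    MonoidHom.noncommCoprod_range _ _ _
  have h3 := c2_ker_range (lcPsi Φ)
  rw [Nat.card_prod, lc_card_ker h2 hΦ, hr, Cfsg.Agent.Lib.Helper7.card_SL2] at h3
  have h4 := card_range hΦ
  have h5 := (((Φ.comp j1).range ⊔ (Φ.comp j2).range).subgroupOf Φ.range).card_mul_index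
  rw [Nat.card_congr (Subgroup.subgroupOfEquivOfLe hle).toEquiv, h4] at h5
  change (((Φ.comp j1).range ⊔ (Φ.comp j2).range).subgroupOf Φ.range).index = 2
  have h6 : Fintype.card F ^ 2 * (Fintype.card F ^ 2 - 1) ^ 2 =
      2 * Nat.card ↥((Φ.comp j1).range ⊔ (Φ.comp j2).range) := by
    rw [← h3]; ring
  rw [h6, mul_comm] at h5
  have hpos : 0 < Nat.card ↥((Φ.comp j1).range ⊔ (Φ.comp j2).range) := Nat.card_pos
  exact Nat.eq_of_mul_eq_mul_right hpos h5

end Cfsg.Agent.Lib.Helper90.GK
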