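import Cfsg.Agent.Lib.Helper90.GK.Defs

set_option autoImplicit false

namespace Cfsg.Agent.Lib.Helper90.GK

open Cfsg.Lie Matrix Cfsg.Agent.Lib.Helper90.G2S
open scoped MatrixGroups

variable {F : Type*} [Field F]

theorem tp_cent {G G' : Type*} [Group G] [Group G'] (e : G ≃* G') (t : G) :
    Subgroup.centralizer ({e t} : Set G') =
      (Subgroup.centralizer ({t} : Set G)).map e.toMonoidHom := by
  ext y
  simp only [Subgroup.mem_centralizer_singleton_iff, Subgroup.mem_map, MulEquiv.coe_toMonoidHom]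
  constructor
  · intro h
    refine ⟨e.symm y, ?_, by simp⟩
    apply e.injective
    simpa using h
  · rintro ⟨x, hx, rfl⟩
    rw [← map_mul, ← map_mul, hx]

theorem P79.map [Fintype F] {G G' : Type*} [Group G] [Group G'] (e : G ≃* G') {t : G}
    (h : P79 G F t) : P79 G' F (e t) := by
  obtain ⟨hc, L₁, L₂, ⟨e₁⟩, ⟨e₂⟩, hcomm, hinf, hle, hri⟩ := h
  have hinj : Function.Injective e.toMonoidHom := e.injective
  refine ⟨?_, L₁.map e.toMonoidHom, L₂.map e.toMonoidHom, ⟨?_⟩, ⟨?_⟩, ?_, ?_, ?_, ?_⟩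
  · rw [tp_cent, ← hc]
    exact (Nat.card_congr (Subgroup.equivMapOfInjective _ _ hinj).toEquiv).symm
  · exact (Subgroup.equivMapOfInjective _ _ hinj).symm.trans e₁
  · exact (Subgroup.equivMapOfInjective _ _ hinj).symm.trans e₂
  · rintro _ ⟨x, hx, rfl⟩ _ ⟨y, hy, rfl⟩
    rw [← map_mul, ← map_mul, hcomm x hx y hy]
  · rw [← Subgroup.map_inf _ _ _ hinj, hinf, MonoidHom.map_zpowers]
    rfl
  · rw [tp_cent, ← Subgroup.map_sup]
    exact Subgroup.map_mono hle
  · rw [tp_cent, ← Subgroup.map_sup, Subgroup.relIndex_map_map_of_injective _ _ hinj, hri]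

end Cfsg.Agent.Lib.Helper90.GK
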