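import Cfsg.Agent.Lib.Helper90.GK.Defs
import Cfsg.Agent.Lib.Helper90.GK.TP
import Cfsg.Agent.Lib.Helper90.GK.T0
import Cfsg.Agent.Lib.Helper90.GK.CRA
import Cfsg.Agent.Lib.Helper90.GK.CRB
import Cfsg.Agent.Lib.Helper90.GK.CRC
import Cfsg.Agent.Lib.Helper90.GK.CR
import Cfsg.Agent.Lib.Helper90.GK.KC
import Cfsg.Agent.Lib.Helper90.GK.LA
import Cfsg.Agent.Lib.Helper90.GK.LB
import Cfsg.Agent.Lib.Helper90.GK.LC
import Cfsg.Agent.Lib.Helper90.GJ.Asm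
import Cfsg.Agent.Lib.Helper90.GI.Asm

set_option autoImplicit false

namespace Cfsg.Agent.Lib.Helper90.GK

open Cfsg.Lie Matrix Cfsg.Agent.Lib.Helper90.G2S
open scoped MatrixGroups

variable {F : Type*} [Field F]

theorem p79_std [Fintype F] (hF : Odd (Fintype.card F)) {Φ : MM F →* G2 F} (hΦ : IsPhi Φ) :
    P79 (G2 F) F (Φ m0) := by
  have h2 := GJ.two_ne_zero_of_odd hF
  unfold P79
  rw [cent_eq_range h2 hΦ]
  exact ⟨card_range hΦ, (Φ.comp j1).range, (Φ.comp j2).range,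
    ⟨(MonoidHom.ofInjective (la hΦ).1).symm⟩, ⟨(MonoidHom.ofInjective (la hΦ).2).symm⟩,
    (lb hΦ).1, (lb hΦ).2, (lc hF hΦ).1, (lc hF hΦ).2⟩

theorem p79_oct [Fintype F] (hF : Odd (Fintype.card F)) (t : G2 F) (ht : orderOf t = 2) :
    P79 (G2 F) F t := by
  obtain ⟨Φ, hΦ⟩ := exists_Phi (F := F)
  obtain ⟨ι, hι⟩ := exists_iota (F := F)
  obtain ⟨g, s, h1, h2⟩ := GJ.invol_std hF ι hι t ht
  have h3 : g * t * g⁻¹ = Φ m0 := h1.trans (t0_eq hΦ ι hι s h2)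
  have h4 := (p79_std hF hΦ).map (MulAut.conj g⁻¹)
  have h5 : (MulAut.conj g⁻¹) (Φ m0) = t := by
    rw [← h3, MulAut.conj_apply]
    group
  rwa [h5] at h4

theorem final79 [Fintype F] (hF : Odd (Fintype.card F)) (t : chevG2.group F) (ht : orderOf t = 2) :
    P79 (chevG2.group F) F t := by
  obtain ⟨e⟩ := GI.exists_iso (F := F)
  have := (p79_oct hF (e.symm t) (by rw [MulEquiv.orderOf_eq]; exact ht)).map e
  simpa using this

end Cfsg.Agent.Lib.Helper90.GK
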