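import Cfsg.Agent.Lib.Helper90.G2S.Defs

/-!
Ladder G2K (helper90): centraliser of an involution of `G₂(q)`, `q` odd.  Definitions only.
-/

set_option autoImplicit false

namespace Cfsg.Agent.Lib.Helper90.GK

open Cfsg.Lie Matrix Cfsg.Agent.Lib.Helper90.G2S
open scoped MatrixGroups

/-- the conclusion of the statement, for a group `G` and an element `t`. -/
def P79 (G : Type*) [Group G] (F : Type*) [Field F] [Fintype F] (t : G) : Prop :=
  Nat.card (Subgroup.centralizer ({t} : Set G)) = Fintype.card F ^ 2 * (Fintype.card F ^ 2 - 1) ^ 2 ∧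
  ∃ L₁ L₂ : Subgroup G, Nonempty (L₁ ≃* SpecialLinearGroup (Fin 2) F) ∧
    Nonempty (L₂ ≃* SpecialLinearGroup (Fin 2) F) ∧
    (∀ x ∈ L₁, ∀ y ∈ L₂, x * y = y * x) ∧ L₁ ⊓ L₂ = Subgroup.zpowers t ∧
    L₁ ⊔ L₂ ≤ Subgroup.centralizer ({t} : Set G) ∧
    (L₁ ⊔ L₂).relIndex (Subgroup.centralizer ({t} : Set G)) = 2

variable {F : Type*} [Field F]

/-- `s ↦ (s, 1)`. -/
def j1 : SpecialLinearGroup (Fin 2) F →* MM F :=
  (MonoidHom.prod (SpecialLinearGroup.toGL) 1).codRestrict (MM F) (by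
    intro s
    change GeneralLinearGroup.det (SpecialLinearGroup.toGL s) = GeneralLinearGroup.det (1 : GL (Fin 2) F)
    ext
    simp)

/-- `s ↦ (1, s)`. -/
def j2 : SpecialLinearGroup (Fin 2) F →* MM F :=
  (MonoidHom.prod 1 (SpecialLinearGroup.toGL)).codRestrict (MM F) (by
    intro s
    change GeneralLinearGroup.det (1 : GL (Fin 2) F) = GeneralLinearGroup.det (SpecialLinearGroup.toGL s)
    ext
    simp)

/-- the element `(1, -1)`. -/
def m0 : MM F := ⟨(1, -1), by
  change GeneralLinearGroup.det (1 : GL (Fin 2) F) = GeneralLinearGroup.det (-1 : GL (Fin 2) F)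
  ext
  simp [Matrix.det_neg]⟩

end Cfsg.Agent.Lib.Helper90.GK
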